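-- Team project PHYP (S5974), regime [TOE] (r odd, any characteristic): sub-interface (helper23).
-- Built on helper44's characteristic-free OELP interface (StdE, SplitE, ...).
import Cfsg.Agent.Lib.Helper23.OHyp.CntDefs
import Cfsg.Agent.Lib.Helper44.OElp.Defs

set_option autoImplicit false
open scoped MatrixGroups
open Matrix

namespace Cfsg.Agent.Lib.Helper23.PHyp

open Cfsg.Agent.Lib.Helper23.OHyp Cfsg.Agent.Lib.Helper44.OElp

universe u

/-- [CNTWITTHE] = OHYP [CNTWITT] without `2 ≠ 0`: the pointwise stabilizer of `movSp x` is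
transitive on the hyperbolic `m`-spaces inside `fixSp x`. -/
def PkgCntWittHE : Prop :=
  ∀ (F : Type u) [Field F] [Fintype F] (ι : Type) [Fintype ι] [DecidableEq ι]
    (Q : (ι → F) → F) (r : ℕ) (x : Matrix ι ι F), StdE Q r x →
    ∀ (m : ℕ) (W W' : HypSp Q m), W.1 ≤ fixSp x → W'.1 ≤ fixSp x →
      ∃ g : GL ι F, g ∈ Cfsg.isometryGroup F Q ∧
        (∀ v ∈ movSp x, (g : Matrix ι ι F) *ᵥ v = v) ∧
        W.1.map (Matrix.toLin' (g : Matrix ι ι F)) = W'.1

/-- [CNTINHE] = OHYP [CNTIN] without `2 ≠ 0`: the number of hyperbolic `m`-spaces inside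
`fixSp x` is prime to `r`. -/
def PkgCntInHE : Prop :=
  ∀ (F : Type u) [Field F] [Fintype F] (ι : Type) [Fintype ι] [DecidableEq ι]
    (Q : (ι → F) → F) (r : ℕ) (x : Matrix ι ι F), StdE Q r x →
    ∀ (m : ℕ), Even m → m < Module.finrank F (fixSp x) →
      Module.finrank F (fixSp x) < cc (Fintype.card F) r →
      ¬ r ∣ Nat.card {W : HypSp Q m // W.1 ≤ fixSp x}

end Cfsg.Agent.Lib.Helper23.PHyp
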