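-- Team project PHYP (S5974), regime [TOE]: basic glue lemmas (helper23).
import Cfsg.Agent.Lib.Helper23.OHyp.Asm
import Cfsg.Agent.Lib.Helper23.OHyp.Cnt
import Cfsg.Agent.Lib.Helper23.PHyp.TOEDefs
import Cfsg.Agent.Lib.Helper63.PHyp.Defs

set_option autoImplicit false
open scoped MatrixGroups
open Matrix

namespace Cfsg.Agent.Lib.Helper23.PHyp

open Cfsg.Agent.Lib.Helper23.OHyp Cfsg.Agent.Lib.Helper44.OElp

universe u

/-- the type rule of [DIV] in terms of the number of blocks -/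
theorem tau_iff {q r : ℕ} (hi : 0 < ordI q r) (j : ℕ) :
    (Odd (ordI q r) ∨ Even (cc q r * j / ordI q r)) ↔
      Cfsg.Agent.Lib.Helper63.PHyp.Tau (ordI q r) j := by
  unfold Cfsg.Agent.Lib.Helper63.PHyp.Tau
  rcases Nat.even_or_odd (ordI q r) with he | ho
  · rw [cc_eq_of_even he, Nat.mul_div_cancel_left j hi]
  · exact ⟨fun _ => Or.inl ho, fun _ => Or.inl ho⟩

section
variable {F : Type u} [Field F]

/-- `Hyp` from the OHYP vocabulary -/
theorem hyp_of {d m : ℕ} {W : Submodule F (Fin d ⊕ Fin d → F)}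
    (hdim : Module.finrank F W = m) (hNd : Nd (Cfsg.quadFormPlus d F) W)
    (hPlus : Plus (Cfsg.quadFormPlus d F) W) : Cfsg.Agent.Lib.Helper63.PHyp.Hyp d m W := by
  refine ⟨hdim, fun u hu hu0 => (hNd u hu hu0).2, ?_⟩
  obtain ⟨U, hUle, hUts, hUdim⟩ := hPlus
  exact ⟨U, hUle, by rw [hUdim, hdim], hUts⟩

/-- the OHYP vocabulary from `Hyp` -/
theorem of_hyp {d m : ℕ} {W : Submodule F (Fin d ⊕ Fin d → F)}
    (h : Cfsg.Agent.Lib.Helper63.PHyp.Hyp d m W) :
    Module.finrank F W = m ∧ Nd (Cfsg.quadFormPlus d F) W ∧ Plus (Cfsg.quadFormPlus d F) W := by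
  obtain ⟨hdim, hnd, U, hUle, hUdim, hUts⟩ := h
  refine ⟨hdim, ?_, ⟨U, hUle, hUts, by rw [hUdim, hdim]⟩⟩
  intro w hw hw0
  obtain ⟨v, hv, hne⟩ := hnd w hw hw0
  exact ⟨⟨v, hv, by rwa [QuadraticMap.polar_comm]⟩, ⟨v, hv, hne⟩⟩

/-- the subtype of hyperbolic spaces of S5974 and `HypSp` have the same cardinality -/
theorem card_hyp_eq (d m : ℕ) :
    Nat.card {W : Submodule F (Fin d ⊕ Fin d → F) // Cfsg.Agent.Lib.Helper63.PHyp.Hyp d m W} =
      Nat.card (HypSp (Cfsg.quadFormPlus d F) m) := by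
  apply Nat.card_congr
  exact Equiv.subtypeEquivRight fun W =>
    ⟨fun h => of_hyp h, fun h => hyp_of h.1 h.2.1 h.2.2⟩

end

section
variable {F : Type u} [Field F] [Fintype F] {ι : Type} [Fintype ι] [DecidableEq ι]

/-- the standing hypotheses for an isometry with `y ^ r = 1` -/
theorem stdE_of {Q : (ι → F) → F} (hQ : Cfsg.Geo.IsNondegenerateQuadraticForm Q) {r : ℕ}
    (hr : r.Prime) (hr2 : r ≠ 2) (hrq : ¬ r ∣ Fintype.card F) {y : GL ι F}
    (hy : y ∈ Cfsg.isometryGroup F Q) (hyr : y ^ r = 1) : StdE Q r (y : Matrix ι ι F) := by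
  have hpow : (y : Matrix ι ι F) ^ r = 1 := by
    rw [← Units.val_pow_eq_pow_val, hyr]; rfl
  exact ⟨hQ, hr, hr2, hrq, natCast_ne_zero_of_not_dvd_card hr hrq, hpow, isom_of_mem hy⟩

/-- a nontrivial element moves something -/
theorem movSp_ne_bot {y : GL ι F} (hy1 : y ≠ 1) : movSp (y : Matrix ι ι F) ≠ ⊥ := by
  intro h
  apply hy1
  apply Units.ext
  have h1 : Matrix.toLin' (y : Matrix ι ι F) - 1 = 0 := by
    unfold movSp at h
    exact LinearMap.range_eq_bot.mp h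
  have h2 : Matrix.toLin' (y : Matrix ι ι F) = Matrix.toLin' (1 : Matrix ι ι F) := by
    rw [Matrix.toLin'_one]
    exact sub_eq_zero.mp h1
  exact Matrix.toLin'.injective h2

end

end Cfsg.Agent.Lib.Helper23.PHyp
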