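-- Team project PHYP (S5974), regime [TOE]: [STRFIX] in every characteristic (helper23).
import Cfsg.Agent.Lib.Helper23.PHyp.Basic

set_option autoImplicit false
open scoped MatrixGroups
open Matrix

namespace Cfsg.Agent.Lib.Helper23.PHyp

open Cfsg.Agent.Lib.Helper23.OHyp Cfsg.Agent.Lib.Helper44.OElp

universe u

section
variable {F : Type u} [Field F] [Fintype F] {ι : Type} [Fintype ι] [DecidableEq ι]

/-- The block count `j` of an isometry `x ≠ 1` with `x ^ r = 1` on a plus-type space, and the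
types of `movSp x` and `fixSp x`. -/
theorem block_count (hSplit : PkgSplitE.{u}) (hDiv : PkgDivE.{u}) (hSum : PkgSumE.{u})
    (Q : (ι → F) → F) (r : ℕ) (x : Matrix ι ι F) (hS : StdE Q r x) (hTop : Plus Q ⊤)
    (hN : movSp x ≠ ⊥) :
    ∃ j : ℕ, 1 ≤ j ∧ Module.finrank F (movSp x) = cc (Fintype.card F) r * j ∧
      Module.finrank F (fixSp x) + cc (Fintype.card F) r * j = Fintype.card ι ∧
      (Plus Q (movSp x) ↔ Cfsg.Agent.Lib.Helper63.PHyp.Tau (ordI (Fintype.card F) r) j) ∧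
      (Even (Module.finrank F (fixSp x)) →
        (Plus Q (fixSp x) ↔ Cfsg.Agent.Lib.Helper63.PHyp.Tau (ordI (Fintype.card F) r) j)) := by
  have hipos : 0 < ordI (Fintype.card F) r := ordI_pos hS.prime hS.ndvd
  obtain ⟨c', hc'⟩ := cc_even (Fintype.card F) r
  obtain ⟨hNdC, hNdN, hPerp, hCompl, hInvN, -⟩ := hSplit F ι Q r x hS
  obtain ⟨⟨j, hj⟩, hplusN⟩ := hDiv F ι Q r x hS (movSp x) le_rfl hInvN hNdN
  have hdim : Module.finrank F (fixSp x) + Module.finrank F (movSp x) = Fintype.card ι := by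
    rw [Submodule.finrank_add_eq_of_isCompl hCompl, Module.finrank_fintype_fun_eq_card]
  have hj1 : 1 ≤ j := by
    by_contra hlt
    have hj0 : j = 0 := by omega
    rw [hj0, mul_zero] at hj
    exact hN (Submodule.finrank_eq_zero.mp hj)
  have hNeven : Even (Module.finrank F (movSp x)) := by
    rw [hj, hc', mul_assoc]; exact even_two_mul _
  have hNtau : Plus Q (movSp x) ↔
      Cfsg.Agent.Lib.Helper63.PHyp.Tau (ordI (Fintype.card F) r) j := by
    rw [hplusN, hj]; exact tau_iff hipos j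
  refine ⟨j, hj1, hj, by rw [← hj]; exact hdim, hNtau, ?_⟩
  intro hCe
  obtain ⟨-, -, hpl⟩ := hSum F ι Q hS.nondeg _ _ hNdC hNdN hPerp
  have h1 := hpl hCe hNeven
  rw [hCompl.sup_eq_top] at h1
  rw [← hNtau]
  exact h1.mp hTop

/-- Generic form of [STRFIX]: a good pair `(j', e)` gives an invariant plus-type `m`-space. -/
theorem fix_core (hSplit : PkgSplitE.{u}) (hDiv : PkgDivE.{u}) (hSub : PkgSubE.{u})
    (hSum : PkgSumE.{u}) (hGeom : PkgGeomE.{u})
    (Q : (ι → F) → F) (r : ℕ) (x : Matrix ι ι F) (hS : StdE Q r x)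
    (j : ℕ) (hj : Module.finrank F (movSp x) = cc (Fintype.card F) r * j)
    (hCtau : Even (Module.finrank F (fixSp x)) →
      (Plus Q (fixSp x) ↔ Cfsg.Agent.Lib.Helper63.PHyp.Tau (ordI (Fintype.card F) r) j))
    (m : ℕ) (hme : Even m) (j' e : ℕ) (hj'le : j' ≤ j)
    (he : e + cc (Fintype.card F) r * j' = m)
    (hle : e ≤ Module.finrank F (fixSp x))
    (h0 : e = 0 → Cfsg.Agent.Lib.Helper63.PHyp.Tau (ordI (Fintype.card F) r) j')
    (hfull : e = Module.finrank F (fixSp x) → 0 < e →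
      (Cfsg.Agent.Lib.Helper63.PHyp.Tau (ordI (Fintype.card F) r) j' ↔
        Cfsg.Agent.Lib.Helper63.PHyp.Tau (ordI (Fintype.card F) r) j)) :
    ∃ W : Submodule F (ι → F), Module.finrank F W = m ∧ Nd Q W ∧ Plus Q W ∧ Inv x W := by
  have hipos : 0 < ordI (Fintype.card F) r := ordI_pos hS.prime hS.ndvd
  obtain ⟨c', hc'⟩ := cc_even (Fintype.card F) r
  obtain ⟨hNdC, hNdN, hPerp, hCompl, hInvN, -⟩ := hSplit F ι Q r x hS
  have hj'N : cc (Fintype.card F) r * j' ≤ Module.finrank F (movSp x) := by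
    rw [hj]; exact Nat.mul_le_mul_left _ hj'le
  obtain ⟨W₁, hW₁le, hW₁inv, hW₁nd, hW₁dim⟩ :=
    hSub F ι Q r x hS (movSp x) le_rfl hInvN hNdN j' hj'N
  obtain ⟨-, hDivW₁⟩ := hDiv F ι Q r x hS W₁ hW₁le hW₁inv hW₁nd
  have hW₁tau : Plus Q W₁ ↔ Cfsg.Agent.Lib.Helper63.PHyp.Tau (ordI (Fintype.card F) r) j' := by
    rw [hDivW₁, hW₁dim]; exact tau_iff hipos j'
  have hW₁even : Even (Module.finrank F W₁) := by
    rw [hW₁dim, hc', mul_assoc]; exact even_two_mul _
  have heven : Even e := by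
    obtain ⟨t, ht⟩ := hme
    have h5 : cc (Fintype.card F) r * j' = 2 * (c' * j') := by rw [hc', mul_assoc]
    exact ⟨t - c' * j', by omega⟩
  rcases Nat.eq_zero_or_pos e with he0 | hepos
  · exact ⟨W₁, by omega, hW₁nd, hW₁tau.mpr (h0 he0), hW₁inv⟩
  · by_cases hlt : e < Module.finrank F (fixSp x)
    · obtain ⟨W₀, hW₀le, hW₀nd, hW₀dim, hW₀plus⟩ :=
        hGeom F ι Q hS.nondeg (fixSp x) hNdC e (Plus Q W₁) heven (by omega) (fun h => by omega)
      have hperp : Perp Q W₀ W₁ := fun u hu v hv => hPerp u (hW₀le hu) v (hW₁le hv)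
      obtain ⟨hnd, hdimsum, hplus⟩ := hSum F ι Q hS.nondeg W₀ W₁ hW₀nd hW₁nd hperp
      refine ⟨W₀ ⊔ W₁, by rw [hdimsum, hW₀dim, hW₁dim]; omega, hnd, ?_, inv_sup hW₀le hW₁inv⟩
      exact (hplus (by rw [hW₀dim]; exact heven) hW₁even).mpr hW₀plus
    · have heq : e = Module.finrank F (fixSp x) := by omega
      have hperp : Perp Q (fixSp x) W₁ := fun u hu v hv => hPerp u hu v (hW₁le hv)
      obtain ⟨hnd, hdimsum, hplus⟩ := hSum F ι Q hS.nondeg _ W₁ hNdC hW₁nd hperp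
      have hCe : Even (Module.finrank F (fixSp x)) := by rw [← heq]; exact heven
      refine ⟨fixSp x ⊔ W₁, by rw [hdimsum, hW₁dim]; omega, hnd, ?_, inv_sup le_rfl hW₁inv⟩
      rw [hplus hCe hW₁even, hCtau hCe, hW₁tau]
      exact (hfull heq hepos).symm

end

/-- [STRFIX] for every finite field, from the characteristic-free structure packages. -/
theorem strFixAt_of (hPlusQ : PkgPlusQE.{u}) (hSplit : PkgSplitE.{u}) (hDiv : PkgDivE.{u})
    (hSub : PkgSubE.{u}) (hSum : PkgSumE.{u}) (hGeom : PkgGeomE.{u})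
    (F : Type u) [Field F] [Fintype F] : Cfsg.Agent.Lib.Helper63.PHyp.StrFixAt F := by
  intro d m r i c hd hm hme hmd hr hr2 hrq hi hc y hy hyr hy1
  have hiI : i = ordI (Fintype.card F) r := hi
  have hcc : c = cc (Fintype.card F) r := by rw [hc, hiI]; rfl
  obtain ⟨hQ, hTop⟩ := hPlusQ F d
  have hS := stdE_of hQ hr hr2 hrq hy hyr
  have hcard : Fintype.card (Fin d ⊕ Fin d) = 2 * d := by simp; omega
  obtain ⟨j, hj1, hj, hdim, hNtau, hCtau⟩ :=
    block_count hSplit hDiv hSum _ r _ hS hTop (movSp_ne_bot hy1)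
  rw [hcard] at hdim
  rw [hiI, hcc]
  refine ⟨j, ⟨hj1, by omega, ?_⟩, ?_⟩
  · intro hfull
    have hC0 : Module.finrank F (fixSp (y : Matrix (Fin d ⊕ Fin d) (Fin d ⊕ Fin d) F)) = 0 := by
      omega
    have h1 := hCtau (by rw [hC0]; exact Even.zero)
    rw [← h1, Submodule.finrank_eq_zero.mp hC0]
    exact ⟨⊥, le_rfl, fun w hw => by
      rw [(Submodule.mem_bot F).mp hw]
      have := hQ.smul 0 0
      simpa using this, by simp⟩
  · rintro j' e ⟨hj'le, he, hle, h0, hfull⟩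
    obtain ⟨W, hWdim, hWnd, hWplus, hWinv⟩ :=
      fix_core hSplit hDiv hSub hSum hGeom _ r _ hS j hj hCtau m hme j' e hj'le he (by omega) h0
        (fun h1 h2 => hfull (by omega) h2)
    exact ⟨W, hyp_of hWdim hWnd hWplus, hWinv⟩

end Cfsg.Agent.Lib.Helper23.PHyp
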