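-- Team project PHYP (S5974), regime [TOE]: [CNT] in every characteristic (helper23).
import Cfsg.Agent.Lib.Helper23.PHyp.StrFix

set_option autoImplicit false
open scoped MatrixGroups
open Matrix

namespace Cfsg.Agent.Lib.Helper23.PHyp

open Cfsg.Agent.Lib.Helper23.OHyp Cfsg.Agent.Lib.Helper44.OElp

universe u

section
variable {F : Type u} [Field F] [Fintype F] {ι : Type} [Fintype ι] [DecidableEq ι]

/-- Counting core: an isometry `x` with `x ^ r = 1` whose fixed space either has dimension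
strictly between `m` and `c`, or is itself a hyperbolic `m`-space, shows that `r` does not
divide the number of hyperbolic `m`-spaces (`m < c`). -/
theorem cnt_core (hCong : PkgCntCong.{u}) (hFixE : PkgCntFixE.{u}) (hInHE : PkgCntInHE.{u})
    (Q : (ι → F) → F) (r : ℕ) (x : GL ι F) (hxiso : x ∈ Cfsg.isometryGroup F Q)
    (hxr : x ^ r = 1) (hS : StdE Q r (x : Matrix ι ι F))
    (m : ℕ) (hme : Even m) (hmc : m < cc (Fintype.card F) r)
    (hcase : (m < Module.finrank F (fixSp (x : Matrix ι ι F)) ∧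
        Module.finrank F (fixSp (x : Matrix ι ι F)) < cc (Fintype.card F) r) ∨
      (m = Module.finrank F (fixSp (x : Matrix ι ι F)) ∧ Nd Q (fixSp (x : Matrix ι ι F)) ∧
        Plus Q (fixSp (x : Matrix ι ι F)))) :
    ¬ r ∣ Nat.card (HypSp Q m) := by
  intro hdvd
  have hcong := hCong F ι Q m r hS.prime x hxiso hxr
  have hcard : Nat.card {W : HypSp Q m // Inv (x : Matrix ι ι F) W.1} =
      Nat.card {W : HypSp Q m // W.1 ≤ fixSp (x : Matrix ι ι F)} := by
    apply Nat.card_congr
    apply Equiv.subtypeEquivRight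
    intro W
    constructor
    · intro hinv
      exact hFixE F ι Q r _ hS W.1 W.2.2.1 hinv (by rw [W.2.1]; exact hmc)
    · intro hle
      have h3 := inv_sup (x := (x : Matrix ι ι F)) (W₀ := W.1) (W₁ := ⊥) hle
        (by unfold Cfsg.Agent.Lib.Helper23.OHyp.Inv; simp)
      simpa using h3
  rw [hcard] at hcong
  have h0 : Nat.card (HypSp Q m) % r = 0 := Nat.mod_eq_zero_of_dvd hdvd
  have h1 : Nat.card {W : HypSp Q m // W.1 ≤ fixSp (x : Matrix ι ι F)} % r = 0 := by
    rw [← hcong]; exact h0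
  rcases hcase with ⟨hlt, hltc⟩ | ⟨heq, hNd, hPlus⟩
  · exact hInHE F ι Q r (x : Matrix ι ι F) hS m hme hlt hltc (Nat.dvd_of_mod_eq_zero h1)
  · have hone : Nat.card {W : HypSp Q m // W.1 ≤ fixSp (x : Matrix ι ι F)} = 1 := by
      rw [Nat.card_eq_one_iff_unique]
      refine ⟨⟨?_⟩, ⟨⟨⟨fixSp (x : Matrix ι ι F), heq.symm, hNd, hPlus⟩, le_rfl⟩⟩⟩
      rintro ⟨⟨W, hW1, hW2⟩, hWle⟩ ⟨⟨W', hW1', hW2'⟩, hWle'⟩
      have e1 : W = fixSp (x : Matrix ι ι F) :=
        Submodule.eq_of_le_of_finrank_eq hWle (by rw [hW1, heq])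
      have e2 : W' = fixSp (x : Matrix ι ι F) :=
        Submodule.eq_of_le_of_finrank_eq hWle' (by rw [hW1', heq])
      subst e1
      subst e2
      rfl
    rw [hone] at h1
    have hr1 : 1 < r := hS.prime.one_lt
    rw [Nat.mod_eq_of_lt hr1] at h1
    exact one_ne_zero h1

end

/-- [CNT] for every finite field, from the characteristic-free packages. -/
theorem cntAt_of (hPlusQ : PkgPlusQE.{u}) (hExist : PkgExistP.{u}) (hCong : PkgCntCong.{u})
    (hFixE : PkgCntFixE.{u}) (hSplit : PkgSplitE.{u}) (hDiv : PkgDivE.{u}) (hSum : PkgSumE.{u})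
    (hInHE : PkgCntInHE.{u})
    (F : Type u) [Field F] [Fintype F] : Cfsg.Agent.Lib.Helper63.PHyp.CntAt F := by
  intro d m r i c hd hm hme hmd hr hr2 hrq hi hc hscond
  have hiI : i = ordI (Fintype.card F) r := hi
  have hcc : c = cc (Fintype.card F) r := by rw [hc, hiI]; rfl
  obtain ⟨hQ, hTop⟩ := hPlusQ F d
  rw [card_hyp_eq]
  rw [hiI, hcc] at hscond
  obtain ⟨hmc, hkpos, hk⟩ := hscond
  have hipos : 0 < ordI (Fintype.card F) r := ordI_pos hr hrq
  have hcpos : 0 < cc (Fintype.card F) r := cc_pos hipos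
  have hcard : Fintype.card (Fin d ⊕ Fin d) = 2 * d := by simp; omega
  have hmodn := Nat.div_add_mod (2 * d) (cc (Fintype.card F) r)
  have hmodlt := Nat.mod_lt (2 * d) hcpos
  by_cases hcn : cc (Fintype.card F) r ≤ 2 * d
  · have hJ1 : 1 ≤ 2 * d / cc (Fintype.card F) r := Nat.div_pos hcn hcpos
    obtain ⟨x, hx, hxord, hxfix⟩ := hExist F d r hr hr2 hrq _ hJ1 (by omega) (fun h => by omega)
    have hxr : x ^ r = 1 := by rw [← hxord]; exact pow_orderOf_eq_one x
    have hx1 : x ≠ 1 := by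
      intro h
      rw [h, orderOf_one] at hxord
      exact hr.one_lt.ne hxord
    have hS := stdE_of hQ hr hr2 hrq hx hxr
    have hD : Module.finrank F (fixSp (x : Matrix (Fin d ⊕ Fin d) (Fin d ⊕ Fin d) F)) =
        2 * d % cc (Fintype.card F) r := by omega
    apply cnt_core hCong hFixE hInHE _ r x hx hxr hS m hme hmc
    rcases hk with hlt | ⟨heq, htau⟩
    · left
      rw [hD]; exact ⟨hlt, hmodlt⟩
    · right
      obtain ⟨hNdC, -, -, -, -, -⟩ := hSplit F _ _ r _ hS
      obtain ⟨j₀, -, hj₀, hdim, -, hCtau⟩ :=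
        block_count hSplit hDiv hSum _ r _ hS hTop (movSp_ne_bot hx1)
      rw [hcard] at hdim
      have hjj : j₀ = 2 * d / cc (Fintype.card F) r := by
        have h1 : cc (Fintype.card F) r * j₀ =
            cc (Fintype.card F) r * (2 * d / cc (Fintype.card F) r) := by omega
        exact Nat.eq_of_mul_eq_mul_left hcpos h1
      refine ⟨by rw [hD]; exact heq, hNdC, ?_⟩
      rw [hCtau (by rw [hD, ← heq]; exact hme), hjj]
      exact htau
  · push Not at hcn
    have h1 : fixSp (((1 : GL (Fin d ⊕ Fin d) F)) : Matrix (Fin d ⊕ Fin d) (Fin d ⊕ Fin d) F)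
        = ⊤ := by
      rw [Units.val_one]; exact fixSp_one
    have hS := stdE_of hQ hr hr2 hrq (one_mem (Cfsg.isometryGroup F (Cfsg.quadFormPlus d F)))
      (one_pow r)
    apply cnt_core hCong hFixE hInHE _ r 1 (one_mem _) (one_pow r) hS m hme hmc
    left
    rw [h1, finrank_top, Module.finrank_fintype_fun_eq_card, hcard]
    exact ⟨by omega, hcn⟩

end Cfsg.Agent.Lib.Helper23.PHyp
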