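-- Team projects OELP (S5988) / PHYP (S5974): package [GEOME] in every characteristic (helper23).
import Cfsg.Agent.Lib.Helper23.PHyp.TOEDefs
import Cfsg.Agent.Lib.Helper37.OHyp.Geom
import Cfsg.Agent.Lib.Helper87.OHyp.Perp
import Cfsg.Agent.Lib.Helper1.OElp.SumE
import Cfsg.Agent.Lib.Helper20.PHyp.NdEven
import Cfsg.Agent.Lib.Helper99.Quad
import Cfsg.Agent.Lib.Helper99.ArfA
import Cfsg.Agent.Lib.Helper12.OHyp.ESim

set_option autoImplicit false
open scoped MatrixGroups
open Matrix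

namespace Cfsg.Agent.Lib.Helper23.PHyp

open Cfsg.Agent.Lib.Helper23.OHyp Cfsg.Agent.Lib.Helper44.OElp

universe u

section
variable {F : Type u} [Field F] {ι : Type} [Fintype ι] [DecidableEq ι]

theorem gQ_add (Q : (ι → F) → F) (a b : ι → F) :
    Q (a + b) = Q a + Q b + QuadraticMap.polar Q a b := by
  unfold QuadraticMap.polar; ring

theorem gQ_zero {Q : (ι → F) → F} (hQ : Cfsg.Geo.IsNondegenerateQuadraticForm Q) : Q 0 = 0 := by
  have := hQ.smul 0 0
  simpa using this

theorem gpolar_self {Q : (ι → F) → F} (hQ : Cfsg.Geo.IsNondegenerateQuadraticForm Q)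
    (h2 : (2 : F) = 0) (v : ι → F) : QuadraticMap.polar Q v v = 0 := by
  have h1 : Q (v + v) = 2 ^ 2 * Q v := by rw [← two_smul F v, hQ.smul]
  unfold QuadraticMap.polar
  rw [h1]
  linear_combination (Q v) * h2

theorem ginv_one (W : Submodule F (ι → F)) : Inv (1 : Matrix ι ι F) W := by
  unfold Cfsg.Agent.Lib.Helper23.OHyp.Inv
  rw [Matrix.toLin'_one, Submodule.map_id]

/-- a plane spanned by `u, w` with `B(u,w) ≠ 0` and `B(u,u) = 0 = B(w,w)` is nondegenerate of
dimension two -/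
theorem plane_nd {Q : (ι → F) → F} (hQ : Cfsg.Geo.IsNondegenerateQuadraticForm Q)
    {u w : ι → F} (huu : QuadraticMap.polar Q u u = 0) (hww : QuadraticMap.polar Q w w = 0)
    (huw : QuadraticMap.polar Q u w ≠ 0) :
    Nd Q (Submodule.span F {u, w}) ∧ Module.finrank F (Submodule.span F {u, w}) = 2 := by
  have hB := hQ.polar_bilinear
  have hwu : QuadraticMap.polar Q w u ≠ 0 := by rwa [QuadraticMap.polar_comm]
  have key1 : ∀ a b : F, QuadraticMap.polar Q (a • u + b • w) u =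
      b * QuadraticMap.polar Q w u := by
    intro a b
    rw [hB.add_left, hB.smul_left, hB.smul_left, huu, mul_zero, zero_add]
  have key2 : ∀ a b : F, QuadraticMap.polar Q (a • u + b • w) w =
      a * QuadraticMap.polar Q u w := by
    intro a b
    rw [hB.add_left, hB.smul_left, hB.smul_left, hww, mul_zero, add_zero]
  constructor
  · intro h hh hh0
    obtain ⟨a, b, rfl⟩ := Submodule.mem_span_pair.mp hh
    have hu : u ∈ Submodule.span F {u, w} := Submodule.subset_span (by simp)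
    have hw : w ∈ Submodule.span F {u, w} := Submodule.subset_span (by simp)
    by_cases hb : b = 0
    · have ha : a ≠ 0 := by
        rintro rfl
        apply hh0
        rw [hb]; simp
      have h1 : QuadraticMap.polar Q (a • u + b • w) w ≠ 0 := by
        rw [key2]; exact mul_ne_zero ha huw
      exact ⟨⟨w, hw, by rwa [QuadraticMap.polar_comm]⟩, ⟨w, hw, h1⟩⟩
    · have h1 : QuadraticMap.polar Q (a • u + b • w) u ≠ 0 := by
        rw [key1]; exact mul_ne_zero hb hwu
      exact ⟨⟨u, hu, by rwa [QuadraticMap.polar_comm]⟩, ⟨u, hu, h1⟩⟩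
  · have hli : LinearIndependent F ![u, w] := by
      rw [LinearIndependent.pair_iff]
      intro a b hab
      have h1 := key1 a b
      have h2 := key2 a b
      rw [hab] at h1 h2
      have hz : ∀ v, QuadraticMap.polar Q 0 v = 0 := by
        intro v
        have := hB.smul_left 0 0 v
        simpa using this
      rw [hz] at h1 h2
      exact ⟨(mul_eq_zero.mp h2.symm).resolve_right huw,
        (mul_eq_zero.mp h1.symm).resolve_right hwu⟩
    have h3 := finrank_span_eq_card hli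
    rw [Fintype.card_fin] at h3
    have hr : Set.range ![u, w] = {u, w} := by
      simp [Matrix.range_cons, Set.pair_comm]
    rw [hr] at h3
    exact h3

/-- a nonzero nondegenerate subspace has a nonsingular vector -/
theorem exists_Q_ne {Q : (ι → F) → F} (C : Submodule F (ι → F)) (hC : Nd Q C) (hne : C ≠ ⊥) :
    ∃ u ∈ C, Q u ≠ 0 := by
  by_contra hcon
  push Not at hcon
  obtain ⟨v, hv, hv0⟩ := Submodule.exists_mem_ne_zero_of_ne_bot hne
  obtain ⟨-, w, hw, hvw⟩ := hC v hv hv0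
  apply hvw
  unfold QuadraticMap.polar
  rw [hcon _ (C.add_mem hv hw), hcon v hv, hcon w hw]; ring

variable [Fintype F]

/-- Chevalley–Warning: a subspace of dimension at least three has a nonzero singular vector -/
theorem exists_sing {Q : (ι → F) → F} (hQ : Cfsg.Geo.IsNondegenerateQuadraticForm Q)
    (C : Submodule F (ι → F)) (h3 : 3 ≤ Module.finrank F C) : ∃ u ∈ C, u ≠ 0 ∧ Q u = 0 := by
  obtain ⟨Q', hQ', -⟩ := Cfsg.Agent.Lib.Helper12.OHyp.esim_exists_qf hQ
  obtain ⟨v, hv, hv0, hQv⟩ := Cfsg.Agent.Lib.Helper99.exists_isotropic Q' C h3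
  have := congrFun hQ' v
  exact ⟨v, hv, hv0, by rw [← this]; exact hQv⟩

/-- characteristic two: a nondegenerate subspace of dimension at least three contains a
hyperbolic plane -/
theorem exists_hyp_plane {Q : (ι → F) → F} (hQ : Cfsg.Geo.IsNondegenerateQuadraticForm Q)
    (h2 : (2 : F) = 0) (C : Submodule F (ι → F)) (hC : Nd Q C)
    (h3 : 3 ≤ Module.finrank F C) :
    ∃ H : Submodule F (ι → F), H ≤ C ∧ Nd Q H ∧ Module.finrank F H = 2 ∧ Plus Q H := by
  obtain ⟨u, hu, hu0, hQu⟩ := exists_sing hQ C h3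
  obtain ⟨-, w, hw, huw⟩ := hC u hu hu0
  obtain ⟨hnd, hdim⟩ := plane_nd hQ (gpolar_self hQ h2 u) (gpolar_self hQ h2 w) huw
  refine ⟨Submodule.span F {u, w}, ?_, hnd, hdim, ?_⟩
  · rw [Submodule.span_le]
    intro z hz
    rcases hz with rfl | rfl
    · exact hu
    · exact hw
  · refine ⟨Submodule.span F {u}, Submodule.span_mono (by simp), ?_, ?_⟩
    · intro z hz
      obtain ⟨a, rfl⟩ := Submodule.mem_span_singleton.mp hz
      rw [hQ.smul, hQu, mul_zero]
    · rw [finrank_span_singleton hu0, hdim]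

/-- characteristic two: a nondegenerate subspace of dimension at least four contains an
anisotropic nondegenerate plane -/
theorem exists_aniso_plane {Q : (ι → F) → F} (hQ : Cfsg.Geo.IsNondegenerateQuadraticForm Q)
    (h2 : (2 : F) = 0) (C : Submodule F (ι → F)) (hC : Nd Q C)
    (h4 : 4 ≤ Module.finrank F C) :
    ∃ A : Submodule F (ι → F), A ≤ C ∧ Nd Q A ∧ Module.finrank F A = 2 ∧ ¬ Plus Q A := by
  have hB := hQ.polar_bilinear
  have hCne : C ≠ ⊥ := by
    rintro rfl
    rw [finrank_bot] at h4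
    omega
  obtain ⟨u, hu, hQu⟩ := exists_Q_ne C hC hCne
  have hu0 : u ≠ 0 := by
    rintro rfl
    exact hQu (gQ_zero hQ)
  obtain ⟨-, v₁, hv₁, huv₁⟩ := hC u hu hu0
  obtain ⟨v₀, hv₀, huv₀⟩ : ∃ v₀ ∈ C, QuadraticMap.polar Q u v₀ = Q u :=
    ⟨(Q u / QuadraticMap.polar Q u v₁) • v₁, C.smul_mem _ hv₁, by
      rw [hB.smul_right]; field_simp⟩
  have huv₀ne : QuadraticMap.polar Q u v₀ ≠ 0 := by rw [huv₀]; exact hQu
  obtain ⟨hPnd, hPdim⟩ := plane_nd hQ (gpolar_self hQ h2 u) (gpolar_self hQ h2 v₀) huv₀ne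
  have huP : u ∈ Submodule.span F {u, v₀} := Submodule.subset_span (by simp)
  have hv₀P : v₀ ∈ Submodule.span F {u, v₀} := Submodule.subset_span (by simp)
  have hPle : Submodule.span F {u, v₀} ≤ C := by
    rw [Submodule.span_le]
    intro z hz
    rcases hz with rfl | rfl
    · exact hu
    · exact hv₀
  obtain ⟨C', hC'le, -, hC'nd, hperp, -, hdims⟩ :=
    Cfsg.Agent.Lib.Helper87.OHyp.pkgPerp F ι Q hQ 1 (fun v => by rw [Matrix.one_mulVec])
      (by simp) C (Submodule.span F {u, v₀}) hPle (ginv_one C) (ginv_one _) hC hPnd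
  have hC'ne : C' ≠ ⊥ := by
    rintro rfl
    rw [finrank_bot] at hdims
    omega
  obtain ⟨w, hw, hQw⟩ := exists_Q_ne C' hC'nd hC'ne
  obtain ⟨t, ht⟩ := Cfsg.Agent.Lib.Helper99.exists_not_isAP (F := F) h2
  obtain ⟨c, hc⟩ := Cfsg.Agent.Lib.Helper99.exists_sqrt2 h2 ((Q u * t - Q v₀) / Q w)
  have huw : QuadraticMap.polar Q u w = 0 := hperp u huP w hw
  have hv₀w : QuadraticMap.polar Q v₀ w = 0 := hperp v₀ hv₀P w hw
  obtain ⟨v, hv⟩ : ∃ v, v = v₀ + c • w := ⟨_, rfl⟩
  have hvC : v ∈ C := by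
    rw [hv]; exact C.add_mem hv₀ (C.smul_mem _ (hC'le hw))
  have huv : QuadraticMap.polar Q u v = Q u := by
    rw [hv, hB.add_right, hB.smul_right, huw, mul_zero, add_zero, huv₀]
  have hQv : Q v = Q u * t := by
    rw [hv, gQ_add Q, hQ.smul, hB.smul_right, hv₀w, mul_zero, add_zero, hc]
    field_simp
    ring
  have hval : ∀ a b : F, Q (a • u + b • v) = Q u * (a ^ 2 + a * b + b ^ 2 * t) := by
    intro a b
    rw [gQ_add Q, hQ.smul, hQ.smul, hB.smul_left, hB.smul_right, huv, hQv]; ring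
  have haniso : ∀ a b : F, Q (a • u + b • v) = 0 → a = 0 ∧ b = 0 := by
    intro a b h
    rw [hval] at h
    have h1 : a ^ 2 + a * b + b ^ 2 * t = 0 := (mul_eq_zero.mp h).resolve_left hQu
    by_cases hb : b = 0
    · subst hb
      have h3 : a ^ 2 = 0 := by linear_combination h1
      exact ⟨pow_eq_zero_iff (two_ne_zero) |>.mp h3, rfl⟩
    · exfalso
      apply ht
      refine ⟨a / b, ?_⟩
      field_simp
      linear_combination h1 - b ^ 2 * t * h2
  have huvne : QuadraticMap.polar Q u v ≠ 0 := by rw [huv]; exact hQu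
  obtain ⟨hAnd, hAdim⟩ := plane_nd hQ (gpolar_self hQ h2 u) (gpolar_self hQ h2 v) huvne
  refine ⟨Submodule.span F {u, v}, ?_, hAnd, hAdim, ?_⟩
  · rw [Submodule.span_le]
    intro z hz
    rcases hz with rfl | rfl
    · exact hu
    · exact hvC
  · rintro ⟨U, hUle, hUts, hUdim⟩
    have hU1 : Module.finrank F U = 1 := by omega
    have hUne : U ≠ ⊥ := by
      rintro rfl
      rw [finrank_bot] at hU1
      omega
    obtain ⟨z, hz, hz0⟩ := Submodule.exists_mem_ne_zero_of_ne_bot hUne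
    obtain ⟨a, b, rfl⟩ := Submodule.mem_span_pair.mp (hUle hz)
    obtain ⟨ha, hb⟩ := haniso a b (hUts _ hz)
    apply hz0
    rw [ha, hb]; simp

/-- characteristic two: subspaces of every smaller even dimension and both types -/
theorem geomE_two {Q : (ι → F) → F} (hQ : Cfsg.Geo.IsNondegenerateQuadraticForm Q)
    (h2 : (2 : F) = 0) :
    ∀ (n : ℕ) (C : Submodule F (ι → F)), Nd Q C → ∀ (ε : Prop),
      2 * n + 2 ≤ Module.finrank F C → (n = 0 → ε) →
      ∃ W₀ : Submodule F (ι → F), W₀ ≤ C ∧ Nd Q W₀ ∧ Module.finrank F W₀ = 2 * n ∧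
        (Plus Q W₀ ↔ ε) := by
  intro n
  induction n with
  | zero =>
    intro C hC ε hdim hε
    refine ⟨⊥, bot_le, ?_, by simp, ?_⟩
    · intro w hw hw0
      exact absurd ((Submodule.mem_bot F).mp hw) hw0
    · exact ⟨fun _ => hε rfl, fun _ => ⟨⊥, le_rfl, fun w hw => by
        rw [(Submodule.mem_bot F).mp hw]; exact gQ_zero hQ, by simp⟩⟩
  | succ k ih =>
    intro C hC ε hdim _
    by_cases hk : k = 0
    · subst hk
      by_cases hε : ε
      · obtain ⟨H, hHle, hHnd, hHdim, hHplus⟩ := exists_hyp_plane hQ h2 C hC (by omega)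
        exact ⟨H, hHle, hHnd, by rw [hHdim], ⟨fun _ => hε, fun _ => hHplus⟩⟩
      · obtain ⟨A, hAle, hAnd, hAdim, hAplus⟩ := exists_aniso_plane hQ h2 C hC (by omega)
        exact ⟨A, hAle, hAnd, by rw [hAdim], ⟨fun h => absurd h hAplus, fun h => absurd h hε⟩⟩
    · obtain ⟨H, hHle, hHnd, hHdim, hHplus⟩ := exists_hyp_plane hQ h2 C hC (by omega)
      obtain ⟨C', hC'le, -, hC'nd, hperp, -, hdims⟩ :=
        Cfsg.Agent.Lib.Helper87.OHyp.pkgPerp F ι Q hQ 1 (fun v => by rw [Matrix.one_mulVec])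
          (by simp) C H hHle (ginv_one C) (ginv_one H) hC hHnd
      obtain ⟨W₁, hW₁le, hW₁nd, hW₁dim, hW₁plus⟩ :=
        ih C' hC'nd ε (by omega) (fun h => absurd h hk)
      have hperp' : Perp Q H W₁ := fun a ha b hb => hperp a ha b (hW₁le hb)
      obtain ⟨hnd, hdimsum, hplus⟩ :=
        Cfsg.Agent.Lib.Helper1.OElp.pkgSumE F ι Q hQ H W₁ hHnd hW₁nd hperp'
      refine ⟨H ⊔ W₁, sup_le hHle (hW₁le.trans hC'le), hnd, by
        rw [hdimsum, hHdim, hW₁dim]; omega, ?_⟩
      rw [hplus (by rw [hHdim]; exact even_two) (by rw [hW₁dim]; exact even_two_mul k),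
        ← hW₁plus]
      exact ⟨fun h => h.mp hHplus, fun h => ⟨fun _ => h, fun _ => hHplus⟩⟩

end

/-- [GEOME], unconditional. -/
theorem pkgGeomE : PkgGeomE.{u} := by
  intro F _ _ ι _ _ Q hQ C hC e ε he hdim hε0
  by_cases h2 : (2 : F) = 0
  · obtain ⟨n, hn⟩ := he
    obtain ⟨f, hf⟩ := Cfsg.Agent.Lib.Helper20.PHyp.pkgNdEven F ι Q hQ h2 C hC
    obtain ⟨W₀, hle, hnd, hd, hp⟩ :=
      geomE_two hQ h2 n C hC ε (by omega) (fun h => hε0 (by omega))
    exact ⟨W₀, hle, hnd, by omega, hp⟩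
  · exact Cfsg.Agent.Lib.Helper37.OHyp.pkgGeom F ι Q hQ h2 C hC e ε he hdim hε0

end Cfsg.Agent.Lib.Helper23.PHyp
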