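-- Team project PHYP (S5974), regime [TOE]: [STRDER] in every characteristic (helper23).
import Cfsg.Agent.Lib.Helper23.PHyp.StrFix

set_option autoImplicit false
open scoped MatrixGroups
open Matrix

namespace Cfsg.Agent.Lib.Helper23.PHyp

open Cfsg.Agent.Lib.Helper23.OHyp Cfsg.Agent.Lib.Helper44.OElp

universe u

section
variable {F : Type u} [Field F] [Fintype F] {ι : Type} [Fintype ι] [DecidableEq ι]

/-- Generic form of [STRDER]: an invariant plus-type `m`-space gives a good pair `(j', e)`. -/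
theorem der_core (hSplit : PkgSplitE.{u}) (hDiv : PkgDivE.{u}) (hSum : PkgSumE.{u})
    (Q : (ι → F) → F) (r : ℕ) (x : Matrix ι ι F) (hS : StdE Q r x)
    (j : ℕ) (hj : Module.finrank F (movSp x) = cc (Fintype.card F) r * j)
    (hCtau : Even (Module.finrank F (fixSp x)) →
      (Plus Q (fixSp x) ↔ Cfsg.Agent.Lib.Helper63.PHyp.Tau (ordI (Fintype.card F) r) j))
    (m : ℕ) (hme : Even m) (W : Submodule F (ι → F)) (hWdim : Module.finrank F W = m)
    (hWnd : Nd Q W) (hWplus : Plus Q W) (hWinv : Inv x W) :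
    ∃ j' e : ℕ, j' ≤ j ∧ e + cc (Fintype.card F) r * j' = m ∧
      e ≤ Module.finrank F (fixSp x) ∧
      (e = 0 → Cfsg.Agent.Lib.Helper63.PHyp.Tau (ordI (Fintype.card F) r) j') ∧
      (e = Module.finrank F (fixSp x) → 0 < e →
        (Cfsg.Agent.Lib.Helper63.PHyp.Tau (ordI (Fintype.card F) r) j' ↔
          Cfsg.Agent.Lib.Helper63.PHyp.Tau (ordI (Fintype.card F) r) j)) := by
  have hipos : 0 < ordI (Fintype.card F) r := ordI_pos hS.prime hS.ndvd
  have hcpos : 0 < cc (Fintype.card F) r := cc_pos hipos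
  obtain ⟨c', hc'⟩ := cc_even (Fintype.card F) r
  obtain ⟨hNdC, hNdN, hPerp, hCompl, hInvN, hWs⟩ := hSplit F ι Q r x hS
  obtain ⟨hW0nd, hW1nd, hW1inv, hsup, hdims⟩ := hWs W hWinv hWnd
  obtain ⟨⟨j', hj'⟩, hplus1⟩ := hDiv F ι Q r x hS (W ⊓ movSp x) inf_le_right hW1inv hW1nd
  have hW1tau : Plus Q (W ⊓ movSp x) ↔
      Cfsg.Agent.Lib.Helper63.PHyp.Tau (ordI (Fintype.card F) r) j' := by
    rw [hplus1, hj']; exact tau_iff hipos j'
  have hle1 : Module.finrank F ↥(W ⊓ movSp x) ≤ Module.finrank F (movSp x) :=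
    Submodule.finrank_mono inf_le_right
  have hle0 : Module.finrank F ↥(W ⊓ fixSp x) ≤ Module.finrank F (fixSp x) :=
    Submodule.finrank_mono inf_le_right
  have hW1even : Even (Module.finrank F ↥(W ⊓ movSp x)) := by
    rw [hj', hc', mul_assoc]; exact even_two_mul _
  have hW0even : Even (Module.finrank F ↥(W ⊓ fixSp x)) := by
    obtain ⟨t, ht⟩ := hme
    have h5 : cc (Fintype.card F) r * j' = 2 * (c' * j') := by rw [hc', mul_assoc]
    exact ⟨t - c' * j', by omega⟩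
  refine ⟨j', Module.finrank F ↥(W ⊓ fixSp x), ?_, by omega, hle0, ?_, ?_⟩
  · rw [hj, hj'] at hle1
    exact Nat.le_of_mul_le_mul_left hle1 hcpos
  · intro h0
    have hbot : W ⊓ fixSp x = ⊥ := Submodule.finrank_eq_zero.mp h0
    have hWeq : W ⊓ movSp x = W := by
      rw [hbot, bot_sup_eq] at hsup; exact hsup
    rw [← hW1tau, hWeq]; exact hWplus
  · intro hfull hpos
    have hCeq : W ⊓ fixSp x = fixSp x :=
      Submodule.eq_of_le_of_finrank_eq inf_le_right hfull
    have hperp : Perp Q (W ⊓ fixSp x) (W ⊓ movSp x) :=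
      fun u hu v hv => hPerp u hu.2 v hv.2
    obtain ⟨-, -, hpl⟩ := hSum F ι Q hS.nondeg _ _ hW0nd hW1nd hperp
    have h1 := hpl hW0even hW1even
    rw [hsup] at h1
    have h2 := h1.mp hWplus
    rw [hCeq] at h2
    have hCe : Even (Module.finrank F (fixSp x)) := by rw [← hCeq]; exact hW0even
    rw [← hW1tau, ← hCtau hCe]
    exact h2.symm

/-- an isometry which is a scalar matrix has square one -/
theorem scalar_sq_one [Nonempty ι] {Q : (ι → F) → F}
    (hQ : Cfsg.Geo.IsNondegenerateQuadraticForm Q) {x : GL ι F}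
    (hx : x ∈ Cfsg.isometryGroup F Q) {z : F}
    (hz : (x : Matrix ι ι F) = z • (1 : Matrix ι ι F)) : x ^ 2 = 1 := by
  have hex : ∃ v : ι → F, Q v ≠ 0 := by
    by_contra hcon
    push Not at hcon
    obtain ⟨k⟩ := ‹Nonempty ι›
    have hv0 : (Pi.single k (1 : F) : ι → F) ≠ 0 := by
      intro h
      have := congrFun h k
      simp at this
    obtain ⟨⟨w, hw⟩, -⟩ := hQ.nondegenerate _ hv0
    apply hw
    unfold QuadraticMap.polar
    rw [hcon, hcon, hcon]; ring
  obtain ⟨v, hv⟩ := hex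
  have h1 := isom_of_mem hx v
  rw [hz, Matrix.smul_mulVec, Matrix.one_mulVec, hQ.smul] at h1
  have hz2 : z ^ 2 = 1 := by
    have h2 : (z ^ 2 - 1) * Q v = 0 := by rw [sub_mul, h1, one_mul, sub_self]
    rcases mul_eq_zero.mp h2 with h | h
    · exact sub_eq_zero.mp h
    · exact absurd h hv
  apply Units.ext
  rw [Units.val_pow_eq_pow_val, hz, Units.val_one, smul_pow, one_pow, hz2, one_smul]

end

/-- [STRDER] for every finite field, from the characteristic-free packages. -/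
theorem strDerAt_of (hPlusQ : PkgPlusQE.{u}) (hOddOmega : PkgOddOmegaE.{u})
    (hSplit : PkgSplitE.{u}) (hDiv : PkgDivE.{u}) (hSum : PkgSumE.{u})
    (hExist : PkgExistP.{u})
    (F : Type u) [Field F] [Fintype F] : Cfsg.Agent.Lib.Helper63.PHyp.StrDerAt F := by
  intro d m r i c hd hm hme hmd hr hr2 hrq hi hc j hvalid
  have hiI : i = ordI (Fintype.card F) r := hi
  have hcc : c = cc (Fintype.card F) r := by rw [hc, hiI]; rfl
  obtain ⟨hQ, hTop⟩ := hPlusQ F d
  rw [hiI, hcc] at hvalid ⊢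
  obtain ⟨hj1, hjle, hjtau⟩ := hvalid
  have hipos : 0 < ordI (Fintype.card F) r := ordI_pos hr hrq
  have hcpos : 0 < cc (Fintype.card F) r := cc_pos hipos
  obtain ⟨x, hx, hxord, hxfix⟩ := hExist F d r hr hr2 hrq j hj1 hjle hjtau
  have hcard : Fintype.card (Fin d ⊕ Fin d) = 2 * d := by simp; omega
  have hxr : x ^ r = 1 := by rw [← hxord]; exact pow_orderOf_eq_one x
  have hx1 : x ≠ 1 := by
    intro h
    rw [h, orderOf_one] at hxord
    exact hr.one_lt.ne hxord
  have hS := stdE_of hQ hr hr2 hrq hx hxr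
  have hxΩ : x ∈ Cfsg.Geo.omegaGL (Cfsg.quadFormPlus d F) := by
    apply hOddOmega F _ _ hQ (fun _ => Or.inr (by rw [hcard]; omega)) x hx
    rw [hxord]; exact hr.odd_of_ne_two hr2
  obtain ⟨j₀, -, hj₀, hdim, -, hCtau⟩ :=
    block_count hSplit hDiv hSum _ r _ hS hTop (movSp_ne_bot hx1)
  rw [hcard] at hdim
  have hjj : j₀ = j := by
    have h1 : cc (Fintype.card F) r * j₀ = cc (Fintype.card F) r * j := by omega
    exact Nat.eq_of_mul_eq_mul_left hcpos h1
  subst hjj
  refine ⟨x, hxΩ, hxr, ?_, ?_⟩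
  · intro z hz
    have : Nonempty (Fin d ⊕ Fin d) := ⟨Sum.inl ⟨0, by omega⟩⟩
    have h2 := scalar_sq_one hQ hx hz
    have h3 : orderOf x ∣ 2 := orderOf_dvd_of_pow_eq_one h2
    rw [hxord] at h3
    exact hr2 ((Nat.prime_dvd_prime_iff_eq hr Nat.prime_two).mp h3)
  · intro W hW hWinv
    obtain ⟨hWdim, hWnd, hWplus⟩ := of_hyp hW
    obtain ⟨j', e, h1, h2, h3, h4, h5⟩ :=
      der_core hSplit hDiv hSum _ r _ hS j₀ hj₀ hCtau m hme W hWdim hWnd hWplus hWinv
    exact ⟨j', e, h1, h2, by omega, h4, fun h6 h7 => h5 (by omega) h7⟩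

end Cfsg.Agent.Lib.Helper23.PHyp
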