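-- Team project PHYP (S5974), regime [TOE]: the three structure packages in every
-- characteristic, modulo [EXISTP] only (helper23).
import Cfsg.Agent.Lib.Helper23.PHyp.StrFix
import Cfsg.Agent.Lib.Helper23.PHyp.StrDer
import Cfsg.Agent.Lib.Helper23.PHyp.Cnt
import Cfsg.Agent.Lib.Helper23.PHyp.GeomE
import Cfsg.Agent.Lib.Helper25.OElp.PlusQE
import Cfsg.Agent.Lib.Helper25.OElp.SplitE
import Cfsg.Agent.Lib.Helper25.OElp.DivE
import Cfsg.Agent.Lib.Helper25.OElp.SubE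
import Cfsg.Agent.Lib.Helper1.OElp.SumE
import Cfsg.Agent.Lib.Helper59.OElp.BlkE
import Cfsg.Agent.Lib.Helper87.OHyp.Perp
import Cfsg.Agent.Lib.Helper44.OElp.OddOmega
import Cfsg.Agent.Lib.Helper45.OHyp.CntCong
import Cfsg.Agent.Lib.Helper26.OElp.CntFixE
import Cfsg.Agent.Lib.Helper26.OElp.CntCauchyE
import Cfsg.Agent.Lib.Helper61.PHyp.CntWittHE
import Cfsg.Agent.Lib.Helper61.PHyp.CntInHE

set_option autoImplicit false
open scoped MatrixGroups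
open Matrix

namespace Cfsg.Agent.Lib.Helper23.PHyp

open Cfsg.Agent.Lib.Helper23.OHyp Cfsg.Agent.Lib.Helper44.OElp

universe u

theorem pkgDivE : PkgDivE.{u} :=
  Cfsg.Agent.Lib.Helper25.OElp.pkgDivE_of Cfsg.Agent.Lib.Helper59.OElp.pkgBlkE
    Cfsg.Agent.Lib.Helper87.OHyp.pkgPerp Cfsg.Agent.Lib.Helper1.OElp.pkgSumE

theorem pkgSubE : PkgSubE.{u} :=
  Cfsg.Agent.Lib.Helper25.OElp.pkgSubE_of Cfsg.Agent.Lib.Helper59.OElp.pkgBlkE
    Cfsg.Agent.Lib.Helper87.OHyp.pkgPerp Cfsg.Agent.Lib.Helper1.OElp.pkgSumE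

theorem pkgCntFixE : PkgCntFixE.{u} :=
  Cfsg.Agent.Lib.Helper26.OElp.pkgCntFixE_of Cfsg.Agent.Lib.Helper25.OElp.pkgSplitE pkgDivE

theorem pkgCntCauchyE : PkgCntCauchyE.{u} :=
  Cfsg.Agent.Lib.Helper26.OElp.pkgCntCauchyE_of Cfsg.Agent.Lib.Helper25.OElp.pkgSplitE pkgDivE

theorem pkgCntInHE : PkgCntInHE.{u} :=
  Cfsg.Agent.Lib.Helper61.PHyp.pkgCntInHE_of pkgGeomE Cfsg.Agent.Lib.Helper25.OElp.pkgSplitE
    (Cfsg.Agent.Lib.Helper61.PHyp.pkgCntWittHE_of Cfsg.Agent.Lib.Helper25.OElp.pkgSplitE)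
    pkgCntCauchyE

/-- [STRFIX] for every finite field, unconditional. -/
theorem strFixAt (F : Type u) [Field F] [Fintype F] : Cfsg.Agent.Lib.Helper63.PHyp.StrFixAt F :=
  strFixAt_of Cfsg.Agent.Lib.Helper25.OElp.pkgPlusQE Cfsg.Agent.Lib.Helper25.OElp.pkgSplitE
    pkgDivE pkgSubE Cfsg.Agent.Lib.Helper1.OElp.pkgSumE pkgGeomE F

/-- [STRDER] for every finite field, modulo [EXISTP]. -/
theorem strDerAt_of_exist (hExist : PkgExistP.{u}) (F : Type u) [Field F] [Fintype F] :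
    Cfsg.Agent.Lib.Helper63.PHyp.StrDerAt F :=
  strDerAt_of Cfsg.Agent.Lib.Helper25.OElp.pkgPlusQE Cfsg.Agent.Lib.Helper44.OElp.pkgOddOmegaE
    Cfsg.Agent.Lib.Helper25.OElp.pkgSplitE pkgDivE Cfsg.Agent.Lib.Helper1.OElp.pkgSumE hExist F

/-- [CNT] for every finite field, modulo [EXISTP]. -/
theorem cntAt_of_exist (hExist : PkgExistP.{u}) (F : Type u) [Field F] [Fintype F] :
    Cfsg.Agent.Lib.Helper63.PHyp.CntAt F :=
  cntAt_of Cfsg.Agent.Lib.Helper25.OElp.pkgPlusQE hExist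
    Cfsg.Agent.Lib.Helper45.OHyp.pkgCntCong pkgCntFixE Cfsg.Agent.Lib.Helper25.OElp.pkgSplitE
    pkgDivE Cfsg.Agent.Lib.Helper1.OElp.pkgSumE pkgCntInHE F

/-- [STRFIX-E], unconditional. -/
theorem pkgStrFixE : Cfsg.Agent.Lib.Helper63.PHyp.PkgStrFixE.{u} := fun F _ _ _ => strFixAt F

/-- [STRDER-E] modulo [EXISTP]. -/
theorem pkgStrDerE_of (hExist : PkgExistP.{u}) : Cfsg.Agent.Lib.Helper63.PHyp.PkgStrDerE.{u} :=
  fun F _ _ _ => strDerAt_of_exist hExist F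

/-- [CNT-E] modulo [EXISTP]. -/
theorem pkgCntE_of (hExist : PkgExistP.{u}) : Cfsg.Agent.Lib.Helper63.PHyp.PkgCntE.{u} :=
  fun F _ _ _ => cntAt_of_exist hExist F

end Cfsg.Agent.Lib.Helper23.PHyp
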