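-- Team project PHYP (S5974), regime [TOE]: the three structure packages, unconditional
-- (helper23).
import Cfsg.Agent.Lib.Helper23.PHyp.TOE
import Cfsg.Agent.Lib.Helper44.OElp.ExistP

set_option autoImplicit false
open scoped MatrixGroups
open Matrix

namespace Cfsg.Agent.Lib.Helper23.PHyp

open Cfsg.Agent.Lib.Helper23.OHyp Cfsg.Agent.Lib.Helper44.OElp

universe u

/-- [STRDER] for every finite field, unconditional. -/
theorem strDerAt (F : Type u) [Field F] [Fintype F] : Cfsg.Agent.Lib.Helper63.PHyp.StrDerAt F :=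
  strDerAt_of_exist Cfsg.Agent.Lib.Helper44.OElp.pkgExistP F

/-- [CNT] for every finite field, unconditional. -/
theorem cntAt (F : Type u) [Field F] [Fintype F] : Cfsg.Agent.Lib.Helper63.PHyp.CntAt F :=
  cntAt_of_exist Cfsg.Agent.Lib.Helper44.OElp.pkgExistP F

/-- [STRDER-E], unconditional. -/
theorem pkgStrDerE : Cfsg.Agent.Lib.Helper63.PHyp.PkgStrDerE.{u} := fun F _ _ _ => strDerAt F

/-- [CNT-E], unconditional. -/
theorem pkgCntE : Cfsg.Agent.Lib.Helper63.PHyp.PkgCntE.{u} := fun F _ _ _ => cntAt F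

/-- [STRFIX-O], unconditional (second proof). -/
theorem pkgStrFixO' : Cfsg.Agent.Lib.Helper63.PHyp.PkgStrFixO.{u} := fun F _ _ _ => strFixAt F

/-- [STRDER-O], unconditional (second proof). -/
theorem pkgStrDerO' : Cfsg.Agent.Lib.Helper63.PHyp.PkgStrDerO.{u} := fun F _ _ _ => strDerAt F

/-- [CNT-O], unconditional (second proof). -/
theorem pkgCntO' : Cfsg.Agent.Lib.Helper63.PHyp.PkgCntO.{u} := fun F _ _ _ => cntAt F

end Cfsg.Agent.Lib.Helper23.PHyp
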